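import Cfsg.Agent.Helper20.Burnside

/-!
# Transitive groups of prime degree with a Sylow normalizer of even order:
dihedral coordinates
-/

set_option autoImplicit false

namespace Cfsg.Agent.Helper20

section
variable {p : ℕ} [hp : Fact p.Prime] {α : Type*} [Fintype α] [DecidableEq α]

/-- An element of order `p` of the symmetric group of degree `p` is a `p`-cycle, along which
the points can be coordinatized by `F_p`. -/
theorem exists_coord_of_orderOf (hα : Fintype.card α = p) (t : Equiv.Perm α)
    (hto : orderOf t = p) : ∃ e : ZMod p ≃ α, ∀ i, t (e i) = e (i + 1) := by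
  classical
  have hpos : 0 < Fintype.card α := by rw [hα]; exact hp.out.pos
  obtain ⟨a0⟩ : Nonempty α := Fintype.card_pos_iff.mp hpos
  have hcyc : t.IsCycle :=
    Equiv.Perm.isCycle_of_prime_order'' (by rw [hα]; exact hp.out) (by rw [hto, hα])
  have hsupp : t.support = Finset.univ := by
    apply Finset.eq_univ_of_card
    rw [← hcyc.orderOf, hto, hα]
  have hmove : ∀ x, t x ≠ x := by
    intro x
    have : x ∈ t.support := by rw [hsupp]; exact Finset.mem_univ x
    exact Equiv.Perm.mem_support.mp this
  let φ : ZMod p → α := fun i => (t ^ i.val) a0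
  have hsurj : Function.Surjective φ := by
    intro y
    obtain ⟨n, hn⟩ := hcyc.exists_pow_eq (hmove a0) (hmove y)
    refine ⟨(n : ZMod p), ?_⟩
    show (t ^ (n : ZMod p).val) a0 = y
    rw [ZMod.val_natCast, ← hto, pow_mod_orderOf, hn]
  have hbij : Function.Bijective φ :=
    (Fintype.bijective_iff_surjective_and_card φ).mpr ⟨hsurj, by rw [ZMod.card, hα]⟩
  refine ⟨Equiv.ofBijective φ hbij, fun i => ?_⟩
  show t ((t ^ i.val) a0) = (t ^ (i + 1).val) a0
  rw [← Equiv.Perm.mul_apply, ← pow_succ']
  have : t ^ (i.val + 1) = t ^ (i + 1).val := by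
    rw [pow_eq_pow_iff_modEq, hto, ← ZMod.natCast_eq_natCast_iff]
    simp
  rw [this]

/-- A Sylow `p`-subgroup of a transitive permutation group of degree `p` has order `p`. -/
theorem sylow_card_eq (hα : Fintype.card α = p) (G : Subgroup (Equiv.Perm α))
    [MulAction.IsPretransitive G α] (P : Sylow p G) : Nat.card (P : Subgroup G) = p := by
  classical
  have hprime : p.Prime := hp.out
  have hpos : 0 < Fintype.card α := by rw [hα]; exact hprime.pos
  obtain ⟨a0⟩ : Nonempty α := Fintype.card_pos_iff.mp hpos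
  have hdvd : p ∣ Nat.card G := by
    have h1 := MulAction.index_stabilizer_of_transitive G a0
    rw [Nat.card_eq_fintype_card, hα] at h1
    rw [← h1]
    exact Subgroup.index_dvd_card _
  obtain ⟨k, hk⟩ := P.isPGroup'.exists_card_eq
  have hk1 : 1 ≤ k := by
    by_contra hcon
    have hk0 : k = 0 := by omega
    rw [hk0, pow_zero] at hk
    exact P.ne_bot_of_dvd_card hdvd (Subgroup.card_eq_one.mp hk)
  have hk2 : k ≤ 1 := by
    by_contra hcon
    have h2 : p ^ 2 ∣ p ^ k := pow_dvd_pow p (by omega)
    have h3 : p ^ k ∣ Nat.card (Equiv.Perm α) := by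
      rw [← hk]
      exact (Subgroup.card_subgroup_dvd_card _).trans (Subgroup.card_subgroup_dvd_card G)
    rw [Nat.card_eq_fintype_card, Fintype.card_perm, hα] at h3
    have h4 : p ^ 2 ∣ p.factorial := h2.trans h3
    have h5 : p.factorial = p * (p - 1).factorial := (Nat.mul_factorial_pred hprime.pos.ne').symm
    rw [h5, pow_two] at h4
    have h6 : p ∣ (p - 1).factorial := Nat.dvd_of_mul_dvd_mul_left hprime.pos h4
    have h7 := (hprime.dvd_factorial).mp h6
    have := hprime.pos
    omega
  have : k = 1 := by omega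
  rw [hk, this, pow_one]

/-- Dihedral coordinates: if the normalizer of a Sylow `p`-subgroup has even order, then the
points can be coordinatized by `F_p` so that `G` contains `x ↦ x + 1` and `x ↦ -x`. -/
theorem exists_dihedral_coord (hα : Fintype.card α = p) (hp2 : p ≠ 2)
    (G : Subgroup (Equiv.Perm α)) [MulAction.IsPretransitive G α] (P : Sylow p G)
    (heven : Even (Nat.card (Subgroup.normalizer ((P : Subgroup G) : Set G)))) :
    ∃ (e : ZMod p ≃ α) (t r : Equiv.Perm α), t ∈ G ∧ r ∈ G ∧ (∀ i, t (e i) = e (i + 1)) ∧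
      (∀ i, r (e i) = e (-i)) := by
  classical
  have hprime : p.Prime := hp.out
  have hcardP := sylow_card_eq hα G P
  obtain ⟨t0, ht0⟩ := exists_prime_orderOf_dvd_card' (G := ↥(P : Subgroup G)) p
    (dvd_of_eq hcardP.symm)
  obtain ⟨tG, htGdef⟩ : ∃ tG : G, tG = (t0 : G) := ⟨_, rfl⟩
  have htGP : tG ∈ (P : Subgroup G) := by rw [htGdef]; exact t0.2
  have ht0G : orderOf tG = p := by
    rw [htGdef, Subgroup.orderOf_coe]; exact ht0
  obtain ⟨t, ht⟩ : ∃ t : Equiv.Perm α, t = (tG : Equiv.Perm α) := ⟨_, rfl⟩
  have hto : orderOf t = p := by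
    rw [ht, Subgroup.orderOf_coe]; exact ht0G
  have htG : t ∈ G := by rw [ht]; exact tG.2
  obtain ⟨e, he⟩ := exists_coord_of_orderOf hα t hto
  -- the involution
  haveI : Fact (Nat.Prime 2) := ⟨Nat.prime_two⟩
  obtain ⟨r0, hr0⟩ := exists_prime_orderOf_dvd_card' 2 heven.two_dvd
  obtain ⟨rG, hrGdef⟩ : ∃ rG : G, rG = (r0 : G) := ⟨_, rfl⟩
  have hrGN : rG ∈ Subgroup.normalizer ((P : Subgroup G) : Set G) := by rw [hrGdef]; exact r0.2
  have hr0G : orderOf rG = 2 := by
    rw [hrGdef, Subgroup.orderOf_coe]; exact hr0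
  obtain ⟨r, hr⟩ : ∃ r : Equiv.Perm α, r = (rG : Equiv.Perm α) := ⟨_, rfl⟩
  have hro : orderOf r = 2 := by
    rw [hr, Subgroup.orderOf_coe]; exact hr0G
  have hrG : r ∈ G := by rw [hr]; exact rG.2
  -- P is generated by tG
  have hPz : Subgroup.zpowers tG = (P : Subgroup G) := by
    apply Subgroup.eq_of_le_of_card_ge
    · rw [Subgroup.zpowers_le]; exact htGP
    · rw [Nat.card_zpowers, ht0G, hcardP]
  have hnorm : rG * tG * rG⁻¹ ∈ (P : Subgroup G) :=
    (Subgroup.mem_normalizer_iff.mp hrGN tG).mp htGP
  rw [← hPz, ← mem_powers_iff_mem_zpowers, Submonoid.mem_powers_iff] at hnorm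
  obtain ⟨n, hn⟩ := hnorm
  have hrel : r * t = t ^ n * r := by
    have h1 : t ^ n = r * t * r⁻¹ := by
      rw [ht, hr]
      have := congrArg (Subtype.val : ↥G → Equiv.Perm α) hn
      simpa using this
    rw [h1, inv_mul_cancel_right]
  -- coordinates
  have hthat : ∀ x, conjHom e t x = x + 1 := by
    intro x
    rw [conjHom_apply, he, Equiv.symm_apply_apply]
  have hpow : ∀ m : ℕ, ∀ x, conjHom e (t ^ m) x = x + (m : ZMod p) := by
    intro m
    induction m with
    | zero => intro x; simp
    | succ m ih =>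
      intro x
      rw [pow_succ, map_mul, Equiv.Perm.mul_apply, ih, hthat, Nat.cast_succ]
      ring
  have hstep : ∀ x, conjHom e r (x + 1) = conjHom e r x + (n : ZMod p) := by
    intro x
    have h1 := congrArg (fun g => conjHom e g x) hrel
    simp only [map_mul, Equiv.Perm.mul_apply] at h1
    rw [hthat, hpow] at h1
    exact h1
  have hnat : ∀ m : ℕ, conjHom e r (m : ZMod p) = conjHom e r 0 + (m : ZMod p) * (n : ZMod p) := by
    intro m
    induction m with
    | zero => simp
    | succ m ih =>
      rw [Nat.cast_succ, hstep, ih]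
      ring
  have hlin : ∀ x, conjHom e r x = (n : ZMod p) * x + conjHom e r 0 := by
    intro x
    have := hnat x.val
    rw [ZMod.natCast_zmod_val] at this
    rw [this]
    ring
  have hrr : ∀ x, conjHom e r (conjHom e r x) = x := by
    intro x
    rw [← Equiv.Perm.mul_apply, ← map_mul, ← pow_two, ← hro, pow_orderOf_eq_one, map_one,
      Equiv.Perm.one_apply]
  have h2ne : (2 : ZMod p) ≠ 0 := by
    intro h
    have h' : ((2 : ℕ) : ZMod p) = 0 := by exact_mod_cast h
    rw [ZMod.natCast_eq_zero_iff] at h'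
    exact hp2 ((Nat.prime_dvd_prime_iff_eq hprime Nat.prime_two).mp h')
  obtain ⟨κ, hκ⟩ : ∃ κ : ZMod p, κ = (n : ZMod p) := ⟨_, rfl⟩
  obtain ⟨b, hb⟩ : ∃ b : ZMod p, b = conjHom e r 0 := ⟨_, rfl⟩
  rw [← hκ, ← hb] at hlin
  have e0 : κ * b + b = 0 := by
    have := hrr 0
    rw [hlin 0, hlin] at this
    linear_combination this
  have e1 : κ * κ = 1 := by
    have := hrr 1
    rw [hlin 1, hlin] at this
    linear_combination this - e0
  have hκ' : κ = 1 ∨ κ = -1 := by
    have : (κ - 1) * (κ + 1) = 0 := by linear_combination e1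
    rcases mul_eq_zero.mp this with h | h
    · left; linear_combination h
    · right; linear_combination h
  have hκneg : κ = -1 := by
    rcases hκ' with h | h
    · exfalso
      rw [h] at e0
      have hb0 : b = 0 := by
        have : (2 : ZMod p) * b = 0 := by linear_combination e0
        rcases mul_eq_zero.mp this with h' | h'
        · exact absurd h' h2ne
        · exact h'
      have hr1 : r = 1 := by
        apply conjHom_injective e
        ext x
        rw [hlin, h, hb0, map_one]
        simp
      rw [hr1, orderOf_one] at hro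
      omega
    · exact h
  have hr' : ∀ x, r (e x) = e (-x + b) := by
    intro x
    have := hlin x
    rw [conjHom_apply, hκneg] at this
    have h2 : -x + b = e.symm (r (e x)) := by rw [this]; ring
    rw [h2, Equiv.apply_symm_apply]
  obtain ⟨c, hc⟩ : ∃ c : ZMod p, c = b / 2 := ⟨_, rfl⟩
  have hbc : b = c + c := by
    rw [hc]
    field_simp
    ring
  refine ⟨(Equiv.addRight c).trans e, t, r, htG, hrG, fun i => ?_, fun i => ?_⟩
  · show t (e (i + c)) = e (i + 1 + c)
    rw [he]
    congr 1
    ring
  · show r (e (i + c)) = e (-i + c)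
    rw [hr', hbc]
    congr 1
    ring

end

end Cfsg.Agent.Helper20
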