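import Cfsg.Agent.Helper20.Dihedral

/-!
# Subgroups of index `p` in transitive groups of prime degree `p`: auxiliary lemmas
-/

set_option autoImplicit false

namespace Cfsg.Agent.Helper20

section
variable {p : ℕ} [hp : Fact p.Prime] {α : Type*} [Fintype α] [DecidableEq α]

omit hp [DecidableEq α] in
/-- A subgroup of index `p` fixing a point is the stabilizer of that point. -/
theorem eq_stabilizer_of_fixes (hα : Fintype.card α = p) (G : Subgroup (Equiv.Perm α))
    [MulAction.IsPretransitive G α] (H : Subgroup G) (hH : H.index = p) (a : α)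
    (hfix : ∀ h ∈ H, h • a = a) : H = MulAction.stabilizer G a := by
  have hppos : 0 < p := by
    rw [← hα]
    exact Fintype.card_pos_iff.mpr ⟨a⟩
  apply Subgroup.eq_of_le_of_card_ge
  · intro h hh
    exact hfix h hh
  · have h1 := Subgroup.card_mul_index (MulAction.stabilizer G a)
    have hΩ : Nat.card α = p := by rw [Nat.card_eq_fintype_card, hα]
    rw [MulAction.index_stabilizer_of_transitive, hΩ] at h1
    have h2 := Subgroup.card_mul_index H
    rw [hH] at h2
    have h3 : Nat.card (MulAction.stabilizer G a) * p = Nat.card H * p := by rw [h1, h2]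
    exact (Nat.eq_of_mul_eq_mul_right hppos h3).le

/-- The order of a subgroup of index `p` is prime to `p`. -/
theorem not_dvd_card_of_index (hα : Fintype.card α = p) (G : Subgroup (Equiv.Perm α))
    (H : Subgroup G) (hH : H.index = p) : ¬ p ∣ Nat.card H := by
  classical
  have hprime : p.Prime := hp.out
  intro hdvd
  have h2 := Subgroup.card_mul_index H
  rw [hH] at h2
  have h3 : p ^ 2 ∣ Nat.card G := by
    rw [← h2, pow_two]
    exact Nat.mul_dvd_mul hdvd (dvd_refl p)
  have h4 : p ^ 2 ∣ p.factorial := by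
    have := h3.trans (Subgroup.card_subgroup_dvd_card G)
    rwa [Nat.card_eq_fintype_card, Fintype.card_perm, hα] at this
  have h5 : p.factorial = p * (p - 1).factorial := (Nat.mul_factorial_pred hprime.pos.ne').symm
  rw [h5, pow_two] at h4
  have h6 : p ∣ (p - 1).factorial := Nat.dvd_of_mul_dvd_mul_left hprime.pos h4
  have h7 := (hprime.dvd_factorial).mp h6
  have := hprime.pos
  omega

/-- A `p'`-group of permutations contains no nontrivial translation. -/
theorem no_translation (e : ZMod p ≃ α) (H' : Subgroup (Equiv.Perm α))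
    (hnd : ¬ p ∣ Nat.card H') (k : Equiv.Perm α) (hk : k ∈ H') (b : ZMod p)
    (hkb : ∀ x, conjHom e k x = x + b) : b = 0 := by
  by_contra hb
  have hpow : ∀ n : ℕ, ∀ x, conjHom e (k ^ n) x = x + (n : ZMod p) * b := by
    intro n
    induction n with
    | zero => intro x; simp
    | succ n ih =>
      intro x
      rw [pow_succ, map_mul, Equiv.Perm.mul_apply, hkb, ih, Nat.cast_succ]
      ring
  have hkp : k ^ p = 1 := by
    apply conjHom_injective e
    ext x
    rw [hpow, ZMod.natCast_self, zero_mul, add_zero, map_one, Equiv.Perm.one_apply]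
  have hk1 : k ≠ 1 := by
    intro h
    apply hb
    have := hkb 0
    rw [h, map_one, Equiv.Perm.one_apply, zero_add] at this
    exact this.symm
  have hord : orderOf k = p := orderOf_eq_prime hkp hk1
  apply hnd
  have := orderOf_dvd_natCard (⟨k, hk⟩ : H')
  rwa [Subgroup.orderOf_mk, hord] at this

/-- A `p'`-group of affine permutations fixes a point. -/
theorem fixes_of_affine (e : ZMod p ≃ α) (H' : Subgroup (Equiv.Perm α))
    (hnd : ¬ p ∣ Nat.card H')
    (haff : ∀ h ∈ H', ∀ x,
      conjHom e h x = (conjHom e h 1 - conjHom e h 0) * x + conjHom e h 0) :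
    ∃ a, ∀ h ∈ H', h a = a := by
  by_cases hbot : ∀ h ∈ H', h = 1
  · exact ⟨e 0, fun h hh => by rw [hbot h hh]; rfl⟩
  push Not at hbot
  obtain ⟨h0, hh0, hh01⟩ := hbot
  have hA_mul : ∀ g1 ∈ H', ∀ g2 : Equiv.Perm α,
      conjHom e (g1 * g2) 1 - conjHom e (g1 * g2) 0
        = (conjHom e g1 1 - conjHom e g1 0) * (conjHom e g2 1 - conjHom e g2 0) := by
    intro g1 hg1 g2
    rw [map_mul, Equiv.Perm.mul_apply, Equiv.Perm.mul_apply, haff g1 hg1 (conjHom e g2 1),
      haff g1 hg1 (conjHom e g2 0)]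
    ring
  have hA_inv : ∀ g ∈ H', (conjHom e g 1 - conjHom e g 0) * (conjHom e g⁻¹ 1 - conjHom e g⁻¹ 0)
      = 1 := by
    intro g hg
    rw [← hA_mul g hg, mul_inv_cancel]
    simp
  obtain ⟨A0, hA0⟩ : ∃ A0 : ZMod p, A0 = conjHom e h0 1 - conjHom e h0 0 := ⟨_, rfl⟩
  obtain ⟨B0, hB0⟩ : ∃ B0 : ZMod p, B0 = conjHom e h0 0 := ⟨_, rfl⟩
  have hh0x : ∀ x, conjHom e h0 x = A0 * x + B0 := by
    intro x
    rw [hA0, hB0]
    exact haff h0 hh0 x
  have hA01 : A0 ≠ 1 := by
    intro h
    have hB00 : B0 = 0 := no_translation e H' hnd h0 hh0 B0 (fun x => by rw [hh0x, h, one_mul])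
    apply hh01
    apply conjHom_injective e
    ext x
    rw [hh0x, h, hB00, map_one]
    simp
  have h1A : (1 : ZMod p) - A0 ≠ 0 := sub_ne_zero.mpr (Ne.symm hA01)
  obtain ⟨x0, hx0⟩ : ∃ x0 : ZMod p, x0 = B0 / (1 - A0) := ⟨_, rfl⟩
  have hfix0 : ∀ y, conjHom e h0 y = y → y = x0 := by
    intro y hy
    rw [hh0x] at hy
    rw [hx0, eq_div_iff h1A]
    linear_combination -hy
  have hx0fix : conjHom e h0 x0 = x0 := by
    rw [hh0x, hx0]
    field_simp
    ring
  refine ⟨e x0, fun h hh => ?_⟩
  -- the commutator is a translation in H', hence trivial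
  have hk : h * h0 * h⁻¹ * h0⁻¹ ∈ H' :=
    H'.mul_mem (H'.mul_mem (H'.mul_mem hh hh0) (H'.inv_mem hh)) (H'.inv_mem hh0)
  have hkA : conjHom e (h * h0 * h⁻¹ * h0⁻¹) 1 - conjHom e (h * h0 * h⁻¹ * h0⁻¹) 0 = 1 := by
    rw [mul_assoc, mul_assoc, hA_mul h hh, hA_mul h0 hh0, hA_mul h⁻¹ (H'.inv_mem hh)]
    have e1 := hA_inv h hh
    have e2 := hA_inv h0 hh0
    linear_combination (conjHom e h0 1 - conjHom e h0 0) * (conjHom e h0⁻¹ 1 - conjHom e h0⁻¹ 0) * e1 + e2
  have hk0 := no_translation e H' hnd _ hk (conjHom e (h * h0 * h⁻¹ * h0⁻¹) 0) (fun x => by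
    rw [haff _ hk x, hkA, one_mul])
  have hk1 : h * h0 * h⁻¹ * h0⁻¹ = 1 := by
    apply conjHom_injective e
    ext x
    rw [haff _ hk x, hkA, hk0, map_one]
    simp
  have hcomm : h * h0 = h0 * h := by
    have := congrArg (fun g => g * h0 * h) hk1
    simp only [one_mul] at this
    rw [← this]
    group
  have h3 : conjHom e h0 (conjHom e h x0) = conjHom e h x0 := by
    rw [← Equiv.Perm.mul_apply, ← map_mul, ← hcomm, map_mul, Equiv.Perm.mul_apply, hx0fix]
  have h4 := hfix0 _ h3
  rw [conjHom_apply] at h4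
  have h5 := congrArg e h4
  rw [Equiv.apply_symm_apply] at h5
  exact h5

/-- A transitive group of prime degree which is not doubly transitive consists of affine
maps in suitable coordinates. -/
theorem affine_of_not_two_transitive (hα : Fintype.card α = p) (G : Subgroup (Equiv.Perm α))
    [MulAction.IsPretransitive G α] (h2 : ¬ MulAction.IsMultiplyPretransitive G α 2) :
    ∃ e : ZMod p ≃ α, ∀ g ∈ G, ∀ x,
      conjHom e g x = (conjHom e g 1 - conjHom e g 0) * x + conjHom e g 0 := by
  classical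
  rw [MulAction.is_two_pretransitive_iff] at h2
  push Not at h2
  obtain ⟨a, b, c, d, hab, hcd, hno⟩ := h2
  obtain ⟨e, t, htG, ht⟩ := exists_coord hα G
  have htr : ∀ z : ZMod p, ∃ τ ∈ G, ∀ x, conjHom e τ x = x + z := by
    have hpow : ∀ n : ℕ, ∀ x, conjHom e (t ^ n) x = x + (n : ZMod p) := by
      intro n
      induction n with
      | zero => intro x; simp
      | succ n ih =>
        intro x
        rw [pow_succ, map_mul, Equiv.Perm.mul_apply, ih, conjHom_apply, ht, Equiv.symm_apply_apply,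
          Nat.cast_succ]
        ring
    intro z
    refine ⟨t ^ z.val, G.pow_mem htG _, fun x => ?_⟩
    rw [hpow, ZMod.natCast_zmod_val]
  let R : ZMod p → ZMod p → Prop := fun y x =>
    ∃ g ∈ G, conjHom e g (e.symm a) = y ∧ conjHom e g (e.symm b) = x
  have hR1 : ∀ y x z, R y x → R (y + z) (x + z) := by
    rintro y x z ⟨g, hg, hgy, hgx⟩
    obtain ⟨τ, hτ, hτz⟩ := htr z
    refine ⟨τ * g, G.mul_mem hτ hg, ?_, ?_⟩
    · rw [map_mul, Equiv.Perm.mul_apply, hgy, hτz]
    · rw [map_mul, Equiv.Perm.mul_apply, hgx, hτz]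
  have hR2 : ∀ y x, R y x ↔ R 0 (x - y) := by
    intro y x
    constructor
    · intro h
      have := hR1 y x (-y) h
      rwa [add_neg_cancel, ← sub_eq_add_neg] at this
    · intro h
      have := hR1 0 (x - y) y h
      rwa [zero_add, sub_add_cancel] at this
  have hR3 : ∀ h ∈ G, ∀ y x, R y x → R (conjHom e h y) (conjHom e h x) := by
    rintro h hh y x ⟨g, hg, hgy, hgx⟩
    refine ⟨h * g, G.mul_mem hh hg, ?_, ?_⟩
    · rw [map_mul, Equiv.Perm.mul_apply, hgy]
    · rw [map_mul, Equiv.Perm.mul_apply, hgx]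
  let S : Finset (ZMod p) := Finset.univ.filter (fun s => R 0 s)
  have hS : ∀ s, s ∈ S ↔ R 0 s := by
    intro s
    simp [S]
  have h0S : (0 : ZMod p) ∉ S := by
    rw [hS]
    rintro ⟨g, hg, hgy, hgx⟩
    apply hab
    have := (conjHom e g).injective (hgy.trans hgx.symm)
    exact e.symm.injective this
  have hneS : S.Nonempty := by
    refine ⟨e.symm b - e.symm a, ?_⟩
    rw [hS, ← hR2]
    exact ⟨1, G.one_mem, by simp, by simp⟩
  have hc0 : e.symm d - e.symm c ≠ 0 := by
    rw [sub_ne_zero]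
    intro h
    exact hcd (e.symm.injective h).symm
  have hcS : e.symm d - e.symm c ∉ S := by
    rw [hS, ← hR2]
    rintro ⟨g, hg, hgy, hgx⟩
    apply hno ⟨g, hg⟩
    · rw [conjHom_apply, Equiv.apply_symm_apply] at hgy
      exact e.symm.injective hgy
    · rw [conjHom_apply, Equiv.apply_symm_apply] at hgx
      exact e.symm.injective hgx
  refine ⟨e, fun h hh => ?_⟩
  apply affine_of_diff_set S h0S hneS _ hc0 hcS
  intro x y
  rw [hS, hS, ← hR2, ← hR2]
  constructor
  · exact hR3 h hh y x
  · intro hr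
    have := hR3 h⁻¹ (G.inv_mem hh) _ _ hr
    have hinv : ∀ z, conjHom e h⁻¹ (conjHom e h z) = z := by
      intro z
      rw [← Equiv.Perm.mul_apply, ← map_mul, inv_mul_cancel, map_one, Equiv.Perm.one_apply]
    rw [hinv, hinv] at this
    exact this

end

end Cfsg.Agent.Helper20
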