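import Mathlib

set_option autoImplicit false

namespace Cfsg.Agent.Helper20.Jordan3

/-- the kernel of a composite is at most the product of the kernels -/
theorem card_ker_comp_le {V : Type*} [AddCommGroup V] [Finite V] (f g : V →+ V) :
    Nat.card (g.comp f).ker ≤ Nat.card f.ker * Nat.card g.ker := by
  classical
  let f' : (g.comp f).ker →+ g.ker :=
    { toFun := fun v => ⟨f v.1, by
        have h := v.2
        rw [AddMonoidHom.mem_ker] at h ⊢
        exact h⟩
      map_zero' := by
        apply Subtype.ext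
        simp
      map_add' := by
        intro a b
        apply Subtype.ext
        simp }
  have h1 : Nat.card f'.ker * f'.ker.index = Nat.card (g.comp f).ker := AddSubgroup.card_mul_index _
  rw [AddSubgroup.index_ker] at h1
  have h2 : Nat.card f'.range ≤ Nat.card g.ker :=
    Nat.card_le_card_of_injective (fun v : f'.range => (v : g.ker)) Subtype.val_injective
  have h3 : Nat.card f'.ker ≤ Nat.card f.ker := by
    refine Nat.card_le_card_of_injective (fun v : f'.ker => (⟨v.1.1, ?_⟩ : f.ker)) ?_
    · have h := v.2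
      rw [AddMonoidHom.mem_ker] at h ⊢
      exact congrArg Subtype.val h
    · intro a b hab
      have h := congrArg Subtype.val hab
      exact Subtype.ext (Subtype.ext h)
  calc Nat.card (g.comp f).ker = Nat.card f'.ker * Nat.card f'.range := h1.symm
    _ ≤ Nat.card f.ker * Nat.card g.ker := Nat.mul_le_mul h3 h2

/-- an endomorphism of order dividing `3` of an elementary abelian `3`-group: cubic bound -/
theorem card_le_ker_pow_three {V : Type*} [AddCommGroup V] [Finite V] (σ : V →+ V)
    (h3 : ∀ v, σ (σ (σ v)) = v) (he : ∀ v : V, (3 : ℕ) • v = 0) :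
    Nat.card V ≤ Nat.card (σ - AddMonoidHom.id V).ker ^ 3 := by
  have hcube : (σ - AddMonoidHom.id V).comp ((σ - AddMonoidHom.id V).comp (σ - AddMonoidHom.id V)) = 0 := by
    ext v
    simp only [AddMonoidHom.comp_apply, AddMonoidHom.sub_apply, AddMonoidHom.id_apply, map_sub,
      AddMonoidHom.zero_apply]
    rw [h3 v]
    have e1 := he (σ v)
    have e2 := he (σ (σ v))
    have : v - σ (σ v) - (σ (σ v) - σ v) - (σ (σ v) - σ v - (σ v - v)) =
        (3 : ℕ) • σ v - (3 : ℕ) • σ (σ v) := by abel
    rw [this, e1, e2, sub_zero]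
  have htop : ((σ - AddMonoidHom.id V).comp
      ((σ - AddMonoidHom.id V).comp (σ - AddMonoidHom.id V))).ker = ⊤ := by
    rw [hcube]; exact AddMonoidHom.ker_zero
  have h1 := card_ker_comp_le ((σ - AddMonoidHom.id V).comp (σ - AddMonoidHom.id V))
    (σ - AddMonoidHom.id V)
  have h2 := card_ker_comp_le (σ - AddMonoidHom.id V) (σ - AddMonoidHom.id V)
  rw [htop] at h1
  have hV : Nat.card (⊤ : AddSubgroup V) = Nat.card V := AddSubgroup.card_top
  calc Nat.card V = Nat.card (⊤ : AddSubgroup V) := hV.symm
    _ ≤ Nat.card ((σ - AddMonoidHom.id V).comp (σ - AddMonoidHom.id V)).ker *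
          Nat.card (σ - AddMonoidHom.id V).ker := h1
    _ ≤ (Nat.card (σ - AddMonoidHom.id V).ker * Nat.card (σ - AddMonoidHom.id V).ker) *
          Nat.card (σ - AddMonoidHom.id V).ker := Nat.mul_le_mul_right _ h2
    _ = Nat.card (σ - AddMonoidHom.id V).ker ^ 3 := by ring

/-- an element with `x ^ 3 = 1` normalizing an elementary abelian group `A` of order `81`
centralizes a subgroup of `A` of order at least `9` -/
theorem nine_le_card_inf_centralizer {P : Type*} [Group P] (A : Subgroup P) [hAn : A.Normal]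
    (hAc : ∀ a ∈ A, ∀ b ∈ A, a * b = b * a) (hAe : ∀ a ∈ A, a ^ 3 = 1)
    (hA : Nat.card A = 81) (x : P) (hx : x ^ 3 = 1) :
    9 ≤ Nat.card ↥(A ⊓ Subgroup.centralizer ({x} : Set P)) := by
  classical
  have : Finite A := Nat.finite_of_card_ne_zero (by rw [hA]; norm_num)
  let _ : CommGroup A :=
    { (inferInstance : Group A) with
      mul_comm := fun a b => Subtype.ext (hAc a a.2 b b.2) }
  let σ : A →* A :=
    { toFun := fun a => ⟨x * a.1 * x⁻¹, hAn.conj_mem a.1 a.2 x⟩
      map_one' := by
        apply Subtype.ext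
        simp
      map_mul' := by
        intro a b
        apply Subtype.ext
        simp [mul_assoc] }
  have hσ3 : ∀ a : A, σ (σ (σ a)) = a := by
    intro a
    apply Subtype.ext
    show x * (x * (x * a.1 * x⁻¹) * x⁻¹) * x⁻¹ = a.1
    have e : x * (x * (x * a.1 * x⁻¹) * x⁻¹) * x⁻¹ = x ^ 3 * a.1 * (x ^ 3)⁻¹ := by
      simp [pow_succ, mul_assoc]
    rw [e, hx]; simp
  let σ' : Additive A →+ Additive A := MonoidHom.toAdditive σ
  have h3 : ∀ v, σ' (σ' (σ' v)) = v := by
    intro v
    show Additive.ofMul (σ (σ (σ (Additive.toMul v)))) = v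
    rw [hσ3]; rfl
  have he : ∀ v : Additive A, (3 : ℕ) • v = 0 := by
    intro v
    have h : (Additive.toMul v) ^ 3 = 1 := by
      apply Subtype.ext
      have := hAe (Additive.toMul v).1 (Additive.toMul v).2
      simpa using this
    show Additive.ofMul ((Additive.toMul v) ^ 3) = 0
    rw [h]; rfl
  have hmain := card_le_ker_pow_three σ' h3 he
  have hfinC : Finite ↥(A ⊓ Subgroup.centralizer ({x} : Set P)) :=
    Finite.of_injective (fun v : ↥(A ⊓ Subgroup.centralizer ({x} : Set P)) => (⟨v.1, v.2.1⟩ : A))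
      (fun a b h => Subtype.ext (congrArg (fun w : A => (w : P)) h))
  have hinj : Nat.card (σ' - AddMonoidHom.id (Additive A)).ker ≤
      Nat.card ↥(A ⊓ Subgroup.centralizer ({x} : Set P)) := by
    refine Nat.card_le_card_of_injective
      (fun v : (σ' - AddMonoidHom.id (Additive A)).ker =>
        (⟨(Additive.toMul v.1 : A).1, ?_⟩ : ↥(A ⊓ Subgroup.centralizer ({x} : Set P)))) ?_
    · refine ⟨(Additive.toMul v.1 : A).2, ?_⟩
      have h := v.2
      rw [AddMonoidHom.mem_ker, AddMonoidHom.sub_apply, AddMonoidHom.id_apply, sub_eq_zero] at h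
      have h' : σ (Additive.toMul v.1) = Additive.toMul v.1 := h
      have h'' : x * (Additive.toMul v.1 : A).1 * x⁻¹ = (Additive.toMul v.1 : A).1 :=
        congrArg Subtype.val h'
      show (Additive.toMul v.1 : A).1 ∈ Subgroup.centralizer ({x} : Set P)
      rw [Subgroup.mem_centralizer_singleton_iff]
      symm
      calc x * (Additive.toMul v.1 : A).1
          = (x * (Additive.toMul v.1 : A).1 * x⁻¹) * x := by group
        _ = (Additive.toMul v.1 : A).1 * x := by rw [h'']
    · intro a b hab
      have h := congrArg Subtype.val hab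
      exact Subtype.ext (Subtype.ext h)
  have hcardV : Nat.card (Additive A) = 81 := hA
  have hdvd : Nat.card ↥(A ⊓ Subgroup.centralizer ({x} : Set P)) ∣ 3 ^ 4 := by
    have := Subgroup.card_dvd_of_le (inf_le_left : A ⊓ Subgroup.centralizer ({x} : Set P) ≤ A)
    rw [hA] at this
    exact this
  obtain ⟨k, hk, hck⟩ := (Nat.dvd_prime_pow Nat.prime_three).mp hdvd
  have h81 : 81 ≤ Nat.card ↥(A ⊓ Subgroup.centralizer ({x} : Set P)) ^ 3 := by
    calc 81 = Nat.card (Additive A) := hcardV.symm
      _ ≤ Nat.card (σ' - AddMonoidHom.id (Additive A)).ker ^ 3 := hmain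
      _ ≤ _ := Nat.pow_le_pow_left hinj 3
  rw [hck] at h81 ⊢
  interval_cases k <;> simp_all

end Cfsg.Agent.Helper20.Jordan3
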