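import Mathlib

/-!
# A finite `p`-group acting on an abelian group of exponent `p` has nonzero fixed vectors
-/

set_option autoImplicit false

namespace Cfsg.Agent.Helper20

theorem exists_fixed_ne_zero_aux {p : ℕ} [Fact p.Prime] {P : Type*} [Group P] [Finite P]
    (hP : IsPGroup p P) {V : Type*} [AddCommGroup V] [Module (ZMod p) V]
    (ρ : P →* AddMonoid.End V) (U : AddSubgroup V) (hU : ∀ g, ∀ v ∈ U, ρ g v ∈ U)
    (u : V) (hu : u ∈ U) (hu0 : u ≠ 0) : ∃ v ∈ U, v ≠ 0 ∧ ∀ g, ρ g v = v := by
  classical
  have hpV : ∀ v : V, p • v = 0 := by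
    intro v
    rw [← Nat.cast_smul_eq_nsmul (ZMod p) p v, CharP.cast_eq_zero, zero_smul]
  let V0 : Submodule (ZMod p) V := Submodule.span (ZMod p) (Set.range fun g : P => ρ g u)
  haveI hfin : Module.Finite (ZMod p) ↥V0 :=
    Module.Finite.span_of_finite (ZMod p) (Set.finite_range (fun g : P => ρ g u))
  haveI : Finite ↥V0 := Module.finite_of_finite (ZMod p)
  have hinv : ∀ g : P, ∀ v ∈ V0, ρ g v ∈ V0 := by
    intro g v hv
    induction hv using Submodule.span_induction with
    | mem x hx =>
      obtain ⟨g', rfl⟩ := hx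
      apply Submodule.subset_span
      exact ⟨g * g', by show ρ (g * g') u = ρ g (ρ g' u); rw [map_mul]; rfl⟩
    | zero => rw [map_zero]; exact V0.zero_mem
    | add x y _ _ hx hy => rw [map_add]; exact V0.add_mem hx hy
    | smul c x _ hx => rw [ZMod.map_smul]; exact V0.smul_mem c hx
  have hle : ∀ v ∈ V0, v ∈ U := by
    intro v hv
    induction hv using Submodule.span_induction with
    | mem x hx =>
      obtain ⟨g', rfl⟩ := hx
      exact hU g' u hu
    | zero => exact U.zero_mem
    | add x y _ _ hx hy => exact U.add_mem hx hy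
    | smul c x _ hx => exact ZMod.smul_mem hx c
  letI : MulAction P V0 :=
    { smul := fun g v => ⟨ρ g v, hinv g v v.2⟩
      one_smul := fun v => by
        apply Subtype.ext
        show ρ 1 (v : V) = v
        rw [map_one]; rfl
      mul_smul := fun g h v => by
        apply Subtype.ext
        show ρ (g * h) (v : V) = ρ g (ρ h v)
        rw [map_mul]; rfl }
  have huV0 : u ∈ V0 := Submodule.subset_span ⟨1, by show ρ 1 u = u; rw [map_one]; rfl⟩
  have hcard : p ∣ Nat.card V0 := by
    have hpg : IsPGroup p (Multiplicative V0) := by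
      intro v
      refine ⟨1, ?_⟩
      rw [pow_one]
      have h1 : (p : ℕ) • (Multiplicative.toAdd v) = 0 := by
        apply Subtype.ext
        show p • ((Multiplicative.toAdd v : V0) : V) = 0
        exact hpV _
      exact congrArg Multiplicative.ofAdd h1
    rcases hpg.card_eq_or_dvd with h | h
    · exfalso
      have h' : Nat.card V0 = 1 := h
      have hsub := (Nat.card_eq_one_iff_unique.mp h').1
      apply hu0
      have := hsub.elim (⟨u, huV0⟩ : V0) 0
      exact congrArg Subtype.val this
    · exact h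
  have h0 : (0 : V0) ∈ MulAction.fixedPoints P V0 := by
    intro g
    apply Subtype.ext
    show ρ g (0 : V) = 0
    rw [map_zero]
  obtain ⟨b, hb, hb0⟩ := hP.exists_fixed_point_of_prime_dvd_card_of_fixed_point V0 hcard h0
  refine ⟨b, hle b b.2, fun h => hb0 (Subtype.ext h.symm), fun g => ?_⟩
  exact congrArg Subtype.val (hb g)

/-- A finite `p`-group acting additively on an abelian group of exponent `p` fixes a nonzero
vector in every nonzero invariant subgroup. -/
theorem exists_fixed_ne_zero {p : ℕ} [Fact p.Prime] {P : Type*} [Group P] [Finite P]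
    (hP : IsPGroup p P) {V : Type*} [AddCommGroup V] (hpV : ∀ v : V, p • v = 0)
    (ρ : P →* AddMonoid.End V) (U : AddSubgroup V) (hU : ∀ g, ∀ v ∈ U, ρ g v ∈ U)
    (u : V) (hu : u ∈ U) (hu0 : u ≠ 0) : ∃ v ∈ U, v ≠ 0 ∧ ∀ g, ρ g v = v := by
  letI : Module (ZMod p) V := AddCommGroup.zmodModule hpV
  exact exists_fixed_ne_zero_aux hP ρ U hU u hu hu0

end Cfsg.Agent.Helper20
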