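import Cfsg.Prelude.Def_Perm
import Cfsg.Agent.Helper20.PFix

/-!
# The permutation module of a transitive action of `p`-power degree in characteristic `p`
-/

set_option autoImplicit false
open Cfsg

namespace Cfsg.Agent.Helper20

/-- unbundled version of `exists_fixed_ne_zero`. -/
theorem exists_fixed_ne_zero' {p : ℕ} [Fact p.Prime] {P : Type*} [Group P] [Finite P]
    (hP : IsPGroup p P) {V : Type*} [AddCommGroup V] (hpV : ∀ v : V, p • v = 0)
    (ρ : P → V → V) (hadd : ∀ g v w, ρ g (v + w) = ρ g v + ρ g w) (h1 : ∀ v, ρ 1 v = v)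
    (hmul : ∀ g h v, ρ (g * h) v = ρ g (ρ h v))
    (U : AddSubgroup V) (hU : ∀ g, ∀ v ∈ U, ρ g v ∈ U)
    (u : V) (hu : u ∈ U) (hu0 : u ≠ 0) : ∃ v ∈ U, v ≠ 0 ∧ ∀ g, ρ g v = v := by
  let ρ' : P →* AddMonoid.End V :=
    { toFun := fun g => AddMonoidHom.mk' (ρ g) (hadd g)
      map_one' := by
        ext v
        exact h1 v
      map_mul' := fun g h => by
        ext v
        exact hmul g h v }
  exact exists_fixed_ne_zero hP hpV ρ' U hU u hu hu0

/-- A Sylow `p`-subgroup of a group acting transitively on a set of `p`-power size is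
transitive. -/
theorem sylow_transitive {G : Type*} [Group G] [Finite G] {p f : ℕ} [Fact p.Prime]
    {Ω : Type*} [Fintype Ω] [MulAction G Ω] [MulAction.IsPretransitive G Ω]
    (hcard : Fintype.card Ω = p ^ f) (Q : Sylow p G) (a b : Ω) :
    ∃ g ∈ (Q : Subgroup G), g • a = b := by
  classical
  have hp : p.Prime := Fact.out
  -- orbit-stabilizer for Q
  have h1 : Nat.card (MulAction.stabilizer (↥(Q : Subgroup G)) a)
      * (MulAction.orbit (↥(Q : Subgroup G)) a).ncard = Nat.card (↥(Q : Subgroup G)) := by
    rw [← MulAction.index_stabilizer]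
    exact Subgroup.card_mul_index _
  -- stabilizer in G
  have h2 : Nat.card (MulAction.stabilizer G a) * p ^ f = Nat.card G := by
    have := Subgroup.card_mul_index (MulAction.stabilizer G a)
    rw [MulAction.index_stabilizer_of_transitive] at this
    have hΩ : Nat.card Ω = p ^ f := by rw [Nat.card_eq_fintype_card, hcard]
    rwa [hΩ] at this
  have h3 : Nat.card (MulAction.stabilizer (↥(Q : Subgroup G)) a)
      ∣ Nat.card (MulAction.stabilizer G a) := by
    have hle : (MulAction.stabilizer (↥(Q : Subgroup G)) a).map (Q : Subgroup G).subtype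
        ≤ MulAction.stabilizer G a := by
      rintro x ⟨y, hy, rfl⟩
      exact hy
    have := Subgroup.card_dvd_of_le hle
    rwa [Subgroup.card_map_of_injective (Q : Subgroup G).subtype_injective] at this
  have h4 := Subgroup.card_mul_index (Q : Subgroup G)
  have h5 : (Nat.card (↥(Q : Subgroup G))).Coprime (Q : Subgroup G).index := Q.card_coprime_index
  obtain ⟨k, hk⟩ := h3
  set s := Nat.card (MulAction.stabilizer (↥(Q : Subgroup G)) a) with hs
  set o := (MulAction.orbit (↥(Q : Subgroup G)) a).ncard with ho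
  have hspos : 0 < s := Nat.card_pos
  -- o * idx = p^f * k
  have h6 : o * (Q : Subgroup G).index = p ^ f * k := by
    have : s * (o * (Q : Subgroup G).index) = s * (p ^ f * k) := by
      calc s * (o * (Q : Subgroup G).index) = (s * o) * (Q : Subgroup G).index := by ring
        _ = Nat.card G := by rw [h1, h4]
        _ = Nat.card (MulAction.stabilizer G a) * p ^ f := h2.symm
        _ = s * (p ^ f * k) := by rw [hk]; ring
    exact Nat.eq_of_mul_eq_mul_left hspos this
  have h7 : p ^ f ∣ o := by
    have hcop : (p ^ f).Coprime (Q : Subgroup G).index := by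
      obtain ⟨n, hn⟩ := (Q.isPGroup'.exists_card_eq)
      rw [hn] at h5
      rcases Nat.eq_zero_or_pos n with h0 | hpos
      · -- Q trivial: then index = card G, and orbit has size 1 ...
        apply Nat.Coprime.pow_left
        rw [Nat.Prime.coprime_iff_not_dvd hp]
        intro hdvd
        -- p ∣ index → p ∣ card G → p ∣ card Q (Sylow) contradiction
        have hQ1 : Nat.card (↥(Q : Subgroup G)) = 1 := by rw [hn, h0, pow_zero]
        have hpG : p ∣ Nat.card G := by
          rw [← h4]
          exact Dvd.dvd.mul_left hdvd _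
        have := Q.ne_bot_of_dvd_card hpG
        apply this
        exact (Subgroup.card_eq_one).mp hQ1
      · apply Nat.Coprime.pow_left
        exact (Nat.coprime_pow_left_iff hpos p _).mp h5
    exact hcop.dvd_of_dvd_mul_right (Dvd.intro k h6.symm)
  have hopos : 0 < o := by
    rw [ho, Set.ncard_pos]
    exact MulAction.nonempty_orbit a
  have h8 : (Set.univ : Set Ω).ncard ≤ o := by
    rw [Set.ncard_univ, Nat.card_eq_fintype_card, hcard]
    exact Nat.le_of_dvd hopos h7
  have h9 : MulAction.orbit (↥(Q : Subgroup G)) a = Set.univ :=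
    Set.eq_of_subset_of_ncard_le (Set.subset_univ _) h8
  have hb : b ∈ MulAction.orbit (↥(Q : Subgroup G)) a := by rw [h9]; exact Set.mem_univ b
  obtain ⟨g, hg⟩ := hb
  exact ⟨g, g.2, hg⟩

/-- In characteristic `p`, a nonzero invariant subspace of the permutation module of a
transitive action of degree `p ^ f` contains the constant functions. -/
theorem one_mem_of_invariant {G : Type*} [Group G] [Finite G] {K : Type*} [Field K] {p f : ℕ}
    [Fact p.Prime] [CharP K p] {Ω : Type*} [Fintype Ω] [MulAction G Ω]
    [MulAction.IsPretransitive G Ω] (hcard : Fintype.card Ω = p ^ f)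
    (U : Submodule K (Ω → K)) (hU : ∀ g : G, ∀ v ∈ U, (fun x => v (g⁻¹ • x)) ∈ U)
    (hU0 : U ≠ ⊥) : (fun _ : Ω => (1 : K)) ∈ U := by
  classical
  obtain ⟨u, hu, hu0⟩ := (Submodule.ne_bot_iff U).mp hU0
  obtain ⟨Q⟩ : Nonempty (Sylow p G) := inferInstance
  have hpV : ∀ v : Ω → K, p • v = 0 := by
    intro v
    funext x
    simp
  obtain ⟨b, hbU, hb0, hbfix⟩ := exists_fixed_ne_zero' (P := ↥(Q : Subgroup G)) Q.isPGroup' hpV
    (fun g v => fun x => v ((g : G)⁻¹ • x))
    (fun g v w => rfl)
    (fun v => by funext x; simp)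
    (fun g h v => by funext x; simp [mul_smul])
    U.toAddSubgroup (fun g v hv => hU (g : G) v hv) u hu hu0
  have hb0' : ∃ a, b a ≠ 0 := by
    by_contra hcon
    push Not at hcon
    exact hb0 (funext hcon)
  obtain ⟨a, ha⟩ := hb0'
  have hconst : ∀ x, b x = b a := by
    intro x
    obtain ⟨g, hg, hgx⟩ := sylow_transitive hcard Q a x
    have := congrFun (hbfix ⟨g, hg⟩) x
    simp only at this
    rw [← this, ← hgx, inv_smul_smul]
  have : (fun _ : Ω => (1 : K)) = (b a)⁻¹ • b := by
    funext x
    simp [hconst x, ha]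
  rw [this]
  exact U.smul_mem _ hbU

end Cfsg.Agent.Helper20
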