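import Cfsg.Agent.Helper20.Burnside

/-!
# Polynomial functions on `F_p`: sums and duality; invariance of `V_d` forces affine
-/

set_option autoImplicit false
open Polynomial

namespace Cfsg.Agent.Helper20

section dual
variable {p : ℕ} [hp : Fact p.Prime]

theorem sum_pow_zmod (k : ℕ) (hk : k < p) :
    ∑ x : ZMod p, x ^ k = if k = p - 1 then -1 else 0 := by
  classical
  have hp2 := hp.out.two_le
  split_ifs with h
  · subst h
    have h1 : ∀ x : ZMod p, x ^ (p - 1) = 1 - (if x = 0 then 1 else 0) := by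
      intro x
      split_ifs with hx
      · rw [hx, zero_pow (by omega), sub_self]
      · rw [ZMod.pow_card_sub_one_eq_one hx, sub_zero]
    rw [Finset.sum_congr rfl (fun x _ => h1 x), Finset.sum_sub_distrib, Finset.sum_const,
      Finset.sum_ite_eq' Finset.univ (0 : ZMod p), if_pos (Finset.mem_univ _), Finset.card_univ,
      ZMod.card, nsmul_one, CharP.cast_eq_zero, zero_sub]
  · apply FiniteField.sum_pow_lt_card_sub_one
    rw [ZMod.card]
    omega

variable {K : Type*} [Field K] [CharP K p] (ι : ZMod p →+* K)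

omit [CharP K p] in
theorem sum_evf (R : K[X]) (hR : R.natDegree < p) :
    ∑ x : ZMod p, evf ι R x = - R.coeff (p - 1) := by
  have hp2 := hp.out.two_le
  have h1 : ∀ x : ZMod p, evf ι R x = ∑ k ∈ Finset.range p, R.coeff k * ι (x ^ k) := by
    intro x
    rw [evf, eval_eq_sum_range' hR]
    simp
  simp_rw [h1]
  rw [Finset.sum_comm]
  simp_rw [← Finset.mul_sum, ← map_sum]
  rw [Finset.sum_eq_single (p - 1)]
  · rw [sum_pow_zmod (p - 1) (by omega), if_pos rfl, map_neg, map_one, mul_neg, mul_one]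
  · intro k hk hne
    rw [sum_pow_zmod k (Finset.mem_range.mp hk), if_neg hne, map_zero, mul_zero]
  · intro h
    exfalso
    apply h
    rw [Finset.mem_range]
    omega

omit [CharP K p] in
theorem natDegree_le_of_dual (d : ℕ) (hd : d + 2 ≤ p) (Q : K[X]) (hQ : Q.natDegree < p)
    (h : ∀ P : K[X], P.natDegree ≤ d → ∑ x : ZMod p, evf ι Q x * evf ι P x = 0) :
    Q.natDegree ≤ p - 2 - d := by
  by_contra hcon
  push Not at hcon
  set a := Q.natDegree with ha
  have h1 := h (X ^ (p - 1 - a)) (by rw [natDegree_X_pow]; omega)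
  have h2 : ∀ x : ZMod p,
      evf ι Q x * evf ι (X ^ (p - 1 - a)) x = evf ι (Q * X ^ (p - 1 - a)) x := by
    intro x
    simp [evf]
  simp_rw [h2] at h1
  have hQ0 : Q ≠ 0 := by
    rintro rfl
    simp at ha
    omega
  have hdeg : (Q * X ^ (p - 1 - a)).natDegree = a + (p - 1 - a) := by
    rw [natDegree_mul_X_pow _ hQ0]
  rw [sum_evf ι _ (by rw [hdeg]; omega)] at h1
  have h3 : (Q * X ^ (p - 1 - a)).coeff (a + (p - 1 - a)) = Q.coeff a :=
    coeff_mul_X_pow Q (p - 1 - a) a
  have e : a + (p - 1 - a) = p - 1 := by omega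
  rw [e] at h3
  rw [h3, neg_eq_zero] at h1
  exact (leadingCoeff_ne_zero.mpr hQ0) h1

omit [CharP K p] in
theorem dual_of_natDegree_le (d : ℕ) (hd : d + 2 ≤ p) (Q P : K[X])
    (hQ : Q.natDegree ≤ p - 2 - d) (hP : P.natDegree ≤ d) :
    ∑ x : ZMod p, evf ι Q x * evf ι P x = 0 := by
  have h2 : ∀ x : ZMod p, evf ι Q x * evf ι P x = evf ι (Q * P) x := by
    intro x
    simp [evf]
  simp_rw [h2]
  have hdeg : (Q * P).natDegree ≤ p - 2 := natDegree_mul_le.trans (by omega)
  rw [sum_evf ι _ (by omega), coeff_eq_zero_of_natDegree_lt (by omega), neg_zero]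

/-- Lemma A': a permutation `σ` such that `σ` and `σ⁻¹` preserve the polynomial functions of
degree `≤ d` (`1 ≤ d ≤ p - 3`) is affine. -/
theorem affine_of_invariant' (d : ℕ) (hd1 : 1 ≤ d) (hd2 : d + 3 ≤ p) (σ : Equiv.Perm (ZMod p))
    (hinv : ∀ P : K[X], P.natDegree ≤ d → ∃ Q : K[X], Q.natDegree ≤ d ∧ (evf ι P) ∘ σ = evf ι Q)
    (hinv' : ∀ P : K[X], P.natDegree ≤ d →
      ∃ Q : K[X], Q.natDegree ≤ d ∧ (evf ι P) ∘ σ.symm = evf ι Q) :
    ∀ x, σ x = (σ 1 - σ 0) * x + σ 0 := by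
  by_cases h : 2 * d ≤ p - 1
  · exact affine_of_invariant ι d hd1 h σ hinv
  · push Not at h
    apply affine_of_invariant ι (p - 2 - d) (by omega) (by omega) σ
    intro Q hQ
    obtain ⟨Q', hQ', hQQ'⟩ := exists_evf ι (evf ι Q ∘ σ)
    refine ⟨Q', ?_, hQQ'⟩
    apply natDegree_le_of_dual ι d (by omega) Q' hQ'
    intro P hP
    obtain ⟨P', hP', hPP'⟩ := hinv' P hP
    rw [← hQQ']
    have hsum : ∑ x : ZMod p, (evf ι Q ∘ σ) x * evf ι P x
        = ∑ y : ZMod p, evf ι Q y * (evf ι P ∘ σ.symm) y := by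
      rw [← Equiv.sum_comp σ (fun y => evf ι Q y * (evf ι P ∘ σ.symm) y)]
      apply Finset.sum_congr rfl
      intro x _
      simp
    rw [hsum, hPP']
    exact dual_of_natDegree_le ι d (by omega) Q P' hQ hP'

end dual

end Cfsg.Agent.Helper20
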