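import Cfsg.Agent.Helper20.PrimeDegDual

/-!
# Shift-invariant subspaces of the functions on `F_p` in characteristic `p`
-/

set_option autoImplicit false
open Polynomial

namespace Cfsg.Agent.Helper20

section
variable {p : ℕ} [hp : Fact p.Prime] {K : Type*} [Field K] [CharP K p] (ι : ZMod p →+* K)

omit hp in
theorem dpoly_iterate_ne_zero [Fact p.Prime] (P : K[X]) (hP0 : P ≠ 0) (hlt : P.natDegree < p) (n : ℕ)
    (hn : n ≤ P.natDegree) : dpoly^[n] P ≠ 0 := by
  rcases Nat.eq_zero_or_pos n with h0 | hpos
  · rw [h0]; exact hP0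
  · obtain ⟨m, rfl⟩ : ∃ m, n = m + 1 := ⟨n - 1, by omega⟩
    rw [Function.iterate_succ_apply']
    have h1 := natDegree_dpoly_iterate P hlt m (by omega)
    exact dpoly_ne_zero _ (by omega) (by omega)

/-- A nonzero subspace of the functions `F_p → K` invariant under the difference operator
is the space of polynomial functions of degree `≤ d` for some `d < p`. -/
theorem invariant_eq_V (W : Submodule K (ZMod p → K)) (hΔ : ∀ h ∈ W, deltaOp h ∈ W)
    (hne : W ≠ ⊥) :
    ∃ d < p, ∀ h : ZMod p → K, h ∈ W ↔ ∃ Q : K[X], Q.natDegree ≤ d ∧ h = evf ι Q := by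
  classical
  have hprime : p.Prime := hp.out
  have hΔpow : ∀ (n : ℕ) (h : ZMod p → K), h ∈ W → (deltaOp ^ n) h ∈ W := by
    intro n
    induction n with
    | zero => intro h hh; simpa using hh
    | succ n ih =>
      intro h hh
      rw [pow_succ, Module.End.mul_apply]
      exact ih _ (hΔ h hh)
  let D : Set ℕ := {n | ∃ P : K[X], P ≠ 0 ∧ P.natDegree = n ∧ n < p ∧ evf ι P ∈ W}
  have hDne : D.Nonempty := by
    obtain ⟨u, hu, hu0⟩ := (Submodule.ne_bot_iff W).mp hne
    obtain ⟨P, hP, rfl⟩ := exists_evf ι u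
    refine ⟨P.natDegree, P, ?_, rfl, hP, hu⟩
    rintro rfl
    apply hu0
    funext x
    simp [evf]
  have hDbdd : BddAbove D := ⟨p, fun n hn => by
    obtain ⟨P, -, -, hlt, -⟩ := hn
    exact hlt.le⟩
  obtain ⟨P0, hP00, hP0d, hdp, hP0W⟩ := Nat.sSup_mem hDne hDbdd
  set d := sSup D with hd
  have hmax : ∀ Q : K[X], Q.natDegree < p → evf ι Q ∈ W → Q.natDegree ≤ d := by
    intro Q hQ hQW
    by_cases hQ0 : Q = 0
    · rw [hQ0, natDegree_zero]; exact Nat.zero_le _
    · exact le_csSup hDbdd ⟨Q, hQ0, rfl, hQ, hQW⟩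
  have hP0p : P0.natDegree < p := by rw [hP0d]; exact hdp
  have hA : ∀ n, n ≤ d → ∀ Q : K[X], Q.natDegree ≤ n → evf ι Q ∈ W := by
    intro n
    induction n using Nat.strong_induction_on with
    | _ n ih =>
      intro hn Q hQ
      by_cases hQ0 : Q = 0
      · rw [hQ0]
        have : evf ι (0 : K[X]) = 0 := by funext x; simp [evf]
        rw [this]
        exact W.zero_mem
      by_cases hQn : Q.natDegree < n
      · exact ih Q.natDegree hQn (by omega) Q le_rfl
      · have hQdeg : Q.natDegree = n := by omega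
        set R := dpoly^[d - n] P0 with hR
        have hRdeg : R.natDegree = n := by
          rw [hR, natDegree_dpoly_iterate P0 hP0p (d - n) (by omega), hP0d]
          omega
        have hRW : evf ι R ∈ W := by
          rw [hR, ← deltaOp_pow_evf]
          exact hΔpow _ _ hP0W
        have hR0 : R ≠ 0 := dpoly_iterate_ne_zero P0 hP00 hP0p (d - n) (by omega)
        set c := Q.leadingCoeff / R.leadingCoeff with hc
        have hc0 : c ≠ 0 :=
          div_ne_zero (leadingCoeff_ne_zero.mpr hQ0) (leadingCoeff_ne_zero.mpr hR0)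
        have hdegeq : Q.degree = (C c * R).degree := by
          rw [degree_C_mul hc0, degree_eq_natDegree hQ0, degree_eq_natDegree hR0, hQdeg, hRdeg]
        have hlc : Q.leadingCoeff = (C c * R).leadingCoeff := by
          rw [leadingCoeff_mul, leadingCoeff_C, hc,
            div_mul_cancel₀ _ (leadingCoeff_ne_zero.mpr hR0)]
        have hlt := degree_sub_lt_left hdegeq hQ0 hlc
        have hsplit : evf ι Q = evf ι (Q - C c * R) + c • evf ι R := by
          funext x
          simp [evf]
        rw [hsplit]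
        refine W.add_mem ?_ (W.smul_mem c hRW)
        by_cases hz : Q - C c * R = 0
        · rw [hz]
          have : evf ι (0 : K[X]) = 0 := by funext x; simp [evf]
          rw [this]
          exact W.zero_mem
        · have hlt' := natDegree_lt_natDegree hz hlt
          exact ih _ (by omega) (by omega) _ le_rfl
  refine ⟨d, hdp, fun h => ⟨fun hh => ?_, ?_⟩⟩
  · obtain ⟨Q, hQ, rfl⟩ := exists_evf ι h
    exact ⟨Q, hmax Q hQ hh, rfl⟩
  · rintro ⟨Q, hQ, rfl⟩
    exact hA d le_rfl Q hQ

/-- The polynomial functions of degree `< r` (`r ≤ p`) form a space of dimension `r`. -/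
theorem finrank_of_eq_V (W : Submodule K (ZMod p → K)) (r : ℕ) (hr : r ≤ p)
    (hW : ∀ h : ZMod p → K, h ∈ W ↔ ∃ Q : K[X], Q.degree < r ∧ h = evf ι Q) :
    Module.finrank K W = r := by
  let evL : degreeLT K r →ₗ[K] (ZMod p → K) :=
    { toFun := fun P => evf ι (P : K[X])
      map_add' := by
        intro P Q
        funext x
        simp [evf]
      map_smul' := by
        intro c P
        funext x
        simp [evf] }
  have hinj : Function.Injective evL := by
    intro P Q hPQ
    apply Subtype.ext
    have hdeg : ∀ P : degreeLT K r, (P : K[X]).natDegree < p := by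
      intro P
      have h1 := mem_degreeLT.mp P.2
      by_cases h0 : (P : K[X]) = 0
      · rw [h0, natDegree_zero]; exact hp.out.pos
      · have := (natDegree_lt_iff_degree_lt h0).mpr h1
        omega
    exact evf_inj ι (hdeg P) (hdeg Q) hPQ
  have hrange : LinearMap.range evL = W := by
    ext h
    rw [LinearMap.mem_range, hW]
    constructor
    · rintro ⟨P, rfl⟩
      exact ⟨P, mem_degreeLT.mp P.2, rfl⟩
    · rintro ⟨Q, hQ, rfl⟩
      exact ⟨⟨Q, mem_degreeLT.mpr hQ⟩, rfl⟩
  rw [← hrange, LinearMap.finrank_range_of_inj hinj, (degreeLTEquiv K r).finrank_eq,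
    Module.finrank_fin_fun]

end

end Cfsg.Agent.Helper20
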