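import Mathlib

set_option autoImplicit false

namespace Cfsg.Agent.Helper20.TwoPrimes

open Real in
/-- A strengthening of the main inequality in the proof of Bertrand's postulate. -/
theorem real_ineq {x : ℝ} (hx : (2048 : ℝ) ≤ x) :
    x * (2 * x) * (2 * x) ^ √(2 * x) * 4 ^ (2 * x / 3) ≤ 4 ^ x := by
  have hx0 : (0 : ℝ) < x := by linarith
  have h := Bertrand.real_main_inequality (x := x / 4) (by linarith)
  have hs : √(2 * x) = 2 * √(2 * (x / 4)) := by
    have : 2 * x = 2 ^ 2 * (2 * (x / 4)) := by ring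
    rw [this, Real.sqrt_mul (by norm_num), Real.sqrt_sq (by norm_num)]
  obtain ⟨s, hsdef⟩ : ∃ s : ℝ, s = √(2 * (x / 4)) := ⟨_, rfl⟩
  rw [← hsdef] at h hs
  have hs0 : 0 ≤ s := by rw [hsdef]; exact Real.sqrt_nonneg _
  have h4 := pow_le_pow_left₀ (by positivity) h 4
  have hR : ((4 : ℝ) ^ (x / 4)) ^ 4 = 4 ^ x := by
    rw [← Real.rpow_natCast, ← Real.rpow_mul (by norm_num)]
    congr 1; push_cast; ring
  rw [hR] at h4
  refine le_trans ?_ h4
  rw [mul_pow, mul_pow]
  have e1 : ((4 : ℝ) ^ (2 * (x / 4) / 3)) ^ 4 = 4 ^ (2 * x / 3) := by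
    rw [← Real.rpow_natCast, ← Real.rpow_mul (by norm_num)]
    congr 1; push_cast; ring
  have e2 : ((2 * (x / 4)) ^ s) ^ 4 = ((2 * (x / 4)) ^ 2) ^ (2 * s) := by
    rw [← Real.rpow_natCast ((2 * (x / 4)) ^ s), ← Real.rpow_mul (by positivity),
      ← Real.rpow_natCast (2 * (x / 4)) 2, ← Real.rpow_mul (by positivity)]
    congr 1; push_cast; ring
  rw [e1, e2, hs]
  have hsq : (512 : ℝ) ≤ x ^ 2 := by nlinarith
  have k1 : x * (2 * x) ≤ (x / 4) ^ 4 := by
    nlinarith [mul_nonneg (sq_nonneg x) (sub_nonneg.mpr hsq)]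
  have k2 : (2 * x) ^ (2 * s) ≤ ((2 * (x / 4)) ^ 2) ^ (2 * s) := by
    apply Real.rpow_le_rpow (by positivity) _ (by positivity)
    nlinarith
  have k3 : (0 : ℝ) ≤ (4 : ℝ) ^ (2 * x / 3) := by positivity
  have k4 : (0 : ℝ) ≤ (2 * x) ^ (2 * s) := by positivity
  have k5 : (0 : ℝ) ≤ (x / 4) ^ 4 := by positivity
  exact mul_le_mul_of_nonneg_right (mul_le_mul k1 k2 k4 k5) k3

open Nat in
theorem nat_ineq {n : ℕ} (n_large : 2048 ≤ n) :
    n * (2 * n) * (2 * n) ^ sqrt (2 * n) * 4 ^ (2 * n / 3) ≤ 4 ^ n := by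
  rw [← @cast_le ℝ]
  simp only [cast_mul, cast_pow, ← Real.rpow_natCast, cast_ofNat]
  refine _root_.trans ?_ (real_ineq (by exact_mod_cast n_large))
  gcongr
  · have n2_pos : 0 < 2 * n := by positivity
    exact mod_cast n2_pos
  · exact_mod_cast Real.nat_sqrt_le_real_sqrt
  · norm_num1
  · exact cast_div_le.trans (by norm_cast)

open Nat in
theorem centralBinom_le_of_one_prime (n : ℕ) (n_large : 2 < n) (p₀ : ℕ)
    (hp₀ : ∀ p : ℕ, p.Prime → n < p → p ≤ 2 * n → p = p₀) :
    centralBinom n ≤ (2 * n) ^ sqrt (2 * n) * 4 ^ (2 * n / 3) * (2 * n) := by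
  have n_pos : 0 < n := (Nat.zero_le _).trans_lt n_large
  have n2_pos : 1 ≤ 2 * n := mul_pos (zero_lt_two' ℕ) n_pos
  let f : ℕ → ℕ := fun x => x ^ n.centralBinom.factorization x
  have hprod : ∏ p ∈ Finset.range (2 * n + 1), f p = n.centralBinom :=
    n.prod_pow_factorization_centralBinom
  have hsub : Finset.range (2 * n / 3 + 1) ⊆ Finset.range (2 * n + 1) := by
    intro x hx; rw [Finset.mem_range] at hx ⊢; omega
  rw [← hprod, ← Finset.prod_sdiff hsub, mul_comm]
  apply Nat.mul_le_mul
  · let S := {p ∈ Finset.range (2 * n / 3 + 1) | Nat.Prime p}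
    have : ∏ x ∈ S, f x = ∏ x ∈ Finset.range (2 * n / 3 + 1), f x := by
      refine Finset.prod_filter_of_ne fun p _ h => ?_
      contrapose h; dsimp only [f]
      rw [factorization_eq_zero_of_not_prime n.centralBinom h, _root_.pow_zero]
    rw [← this, ← Finset.prod_filter_mul_prod_filter_not S (· ≤ sqrt (2 * n))]
    apply mul_le_mul'
    · refine (Finset.prod_le_prod' fun p _ => (?_ : f p ≤ 2 * n)).trans ?_
      · exact pow_factorization_choose_le (mul_pos two_pos n_pos)
      have : (Finset.Icc 1 (sqrt (2 * n))).card = sqrt (2 * n) := by rw [card_Icc, Nat.add_sub_cancel]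
      rw [Finset.prod_const]
      refine pow_right_mono₀ n2_pos ((Finset.card_le_card fun x hx => ?_).trans this.le)
      obtain ⟨h1, h2⟩ := Finset.mem_filter.1 hx
      exact Finset.mem_Icc.mpr ⟨(Finset.mem_filter.1 h1).2.one_lt.le, h2⟩
    · refine le_trans ?_ (primorial_le_four_pow (2 * n / 3))
      refine (Finset.prod_le_prod' fun p hp => (?_ : f p ≤ p)).trans ?_
      · obtain ⟨h1, h2⟩ := Finset.mem_filter.1 hp
        refine (pow_right_mono₀ (Finset.mem_filter.1 h1).2.one_lt.le ?_).trans (pow_one p).le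
        exact Nat.factorization_choose_le_one (sqrt_lt'.mp <| not_le.1 h2)
      refine Finset.prod_le_prod_of_subset_of_one_le' (Finset.filter_subset _ _) ?_
      exact fun p hp _ => (Finset.mem_filter.1 hp).2.one_lt.le
  · calc ∏ x ∈ Finset.range (2 * n + 1) \ Finset.range (2 * n / 3 + 1), f x
        ≤ ∏ x ∈ Finset.range (2 * n + 1) \ Finset.range (2 * n / 3 + 1),
            (if x = p₀ then 2 * n else 1) := by
          apply Finset.prod_le_prod'
          intro x hx
          rw [Finset.mem_sdiff, Finset.mem_range, Finset.mem_range] at hx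
          by_cases hxp : x.Prime
          · by_cases hxn : x ≤ n
            · have h0 : n.centralBinom.factorization x = 0 :=
                factorization_centralBinom_of_two_mul_self_lt_three_mul n_large hxn (by omega)
              have h1 : f x = 1 := by simp only [f, h0, _root_.pow_zero]
              rw [h1]; split_ifs <;> omega
            · have hx0 := hp₀ x hxp (by omega) (by omega)
              rw [if_pos hx0]
              have hv : n.centralBinom.factorization x ≤ 1 :=
                Nat.factorization_choose_le_one (by nlinarith)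
              calc f x ≤ x ^ 1 := Nat.pow_le_pow_right hxp.pos hv
                _ ≤ 2 * n := by rw [_root_.pow_one]; omega
          · have h0 : n.centralBinom.factorization x = 0 :=
              Nat.factorization_eq_zero_of_not_prime _ hxp
            have h1 : f x = 1 := by simp only [f, h0, _root_.pow_zero]
            rw [h1]; split_ifs <;> omega
      _ ≤ 2 * n := by
          rw [Finset.prod_ite_eq']
          split_ifs <;> omega

theorem two_primes_large (n : ℕ) (n_large : 2048 ≤ n) :
    ∃ a b : ℕ, a.Prime ∧ b.Prime ∧ n < b ∧ b < a ∧ a ≤ 2 * n := by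
  obtain ⟨p₀, hp₀, hnp₀, hp₀n⟩ := Nat.exists_prime_lt_and_le_two_mul n (by omega)
  by_contra hcon
  have huniq : ∀ p : ℕ, p.Prime → n < p → p ≤ 2 * n → p = p₀ := by
    intro p hp hnp hpn
    by_contra hne
    rcases Nat.lt_or_gt_of_ne hne with h | h
    · exact hcon ⟨p₀, p, hp₀, hp, hnp, h, hp₀n⟩
    · exact hcon ⟨p, p₀, hp, hp₀, hnp₀, h, hpn⟩
  have h1 := centralBinom_le_of_one_prime n (by omega) p₀ huniq
  have h2 := Nat.four_pow_lt_mul_centralBinom n (by omega)
  have h3 := nat_ineq n_large
  have h4 : n * n.centralBinom ≤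
      n * ((2 * n) ^ Nat.sqrt (2 * n) * 4 ^ (2 * n / 3) * (2 * n)) := Nat.mul_le_mul_left n h1
  have h5 : n * ((2 * n) ^ Nat.sqrt (2 * n) * 4 ^ (2 * n / 3) * (2 * n)) =
      n * (2 * n) * (2 * n) ^ Nat.sqrt (2 * n) * 4 ^ (2 * n / 3) := by ring
  omega

theorem two_primes_succ {n : ℕ} (q : ℕ) {p p' : ℕ} (prime_p : p.Prime) (prime_p' : p'.Prime)
    (hpp' : p < p') (covering : p' ≤ 2 * q)
    (H : n < q → ∃ a b : ℕ, a.Prime ∧ b.Prime ∧ n < b ∧ b < a ∧ a ≤ 2 * n) (hn : n < p) :
    ∃ a b : ℕ, a.Prime ∧ b.Prime ∧ n < b ∧ b < a ∧ a ≤ 2 * n := by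
  by_cases h : n < q
  · exact H h
  · exact ⟨p', p, prime_p', prime_p, hn, hpp', by omega⟩

/-- For `n ≥ 6` there are two primes in `(n, 2n]`. -/
theorem two_primes (n : ℕ) (hn : 6 ≤ n) :
    ∃ a b : ℕ, a.Prime ∧ b.Prime ∧ n < b ∧ b < a ∧ a ≤ 2 * n := by
  rcases le_or_gt 2048 n with h | h
  · exact two_primes_large n h
  replace h : n < 2179 := by omega
  revert h
  refine two_primes_succ 1259 (p := 2179) (p' := 2503) (by norm_num) (by norm_num)
    (by norm_num) (by norm_num) ?_
  refine two_primes_succ 1093 (p := 1259) (p' := 2179) (by norm_num) (by norm_num)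
    (by norm_num) (by norm_num) ?_
  refine two_primes_succ 631 (p := 1093) (p' := 1259) (by norm_num) (by norm_num)
    (by norm_num) (by norm_num) ?_
  refine two_primes_succ 547 (p := 631) (p' := 1093) (by norm_num) (by norm_num)
    (by norm_num) (by norm_num) ?_
  refine two_primes_succ 317 (p := 547) (p' := 631) (by norm_num) (by norm_num)
    (by norm_num) (by norm_num) ?_
  refine two_primes_succ 277 (p := 317) (p' := 547) (by norm_num) (by norm_num)
    (by norm_num) (by norm_num) ?_
  refine two_primes_succ 163 (p := 277) (p' := 317) (by norm_num) (by norm_num)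
    (by norm_num) (by norm_num) ?_
  refine two_primes_succ 139 (p := 163) (p' := 277) (by norm_num) (by norm_num)
    (by norm_num) (by norm_num) ?_
  refine two_primes_succ 83 (p := 139) (p' := 163) (by norm_num) (by norm_num)
    (by norm_num) (by norm_num) ?_
  refine two_primes_succ 73 (p := 83) (p' := 139) (by norm_num) (by norm_num)
    (by norm_num) (by norm_num) ?_
  refine two_primes_succ 43 (p := 73) (p' := 83) (by norm_num) (by norm_num)
    (by norm_num) (by norm_num) ?_
  refine two_primes_succ 37 (p := 43) (p' := 73) (by norm_num) (by norm_num)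
    (by norm_num) (by norm_num) ?_
  refine two_primes_succ 23 (p := 37) (p' := 43) (by norm_num) (by norm_num)
    (by norm_num) (by norm_num) ?_
  refine two_primes_succ 19 (p := 23) (p' := 37) (by norm_num) (by norm_num)
    (by norm_num) (by norm_num) ?_
  refine two_primes_succ 13 (p := 19) (p' := 23) (by norm_num) (by norm_num)
    (by norm_num) (by norm_num) ?_
  refine two_primes_succ 11 (p := 13) (p' := 19) (by norm_num) (by norm_num)
    (by norm_num) (by norm_num) ?_
  refine two_primes_succ 7 (p := 11) (p' := 13) (by norm_num) (by norm_num)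
    (by norm_num) (by norm_num) ?_
  refine two_primes_succ 6 (p := 7) (p' := 11) (by norm_num) (by norm_num)
    (by norm_num) (by norm_num) ?_
  intro h6
  omega

end Cfsg.Agent.Helper20.TwoPrimes
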